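import Mathlib
import Cfsg.Agent.Base
import Cfsg.Agent.Lib.Push.Amal6
import Cfsg.Agent.Lib.Functor.QdOver
import Cfsg.Agent.Lib.Core.CrossedHom

/-! Recognition of `Qd(q) × E` in the pushing-up configuration of critical distance one. -/

set_option autoImplicit false
set_option linter.unusedSectionVars false
set_option linter.style.haveILetI false

namespace H68.Push

open Subgroup H69 H24 Matrix Cfsg
open scoped MatrixGroups commutatorElement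

variable {G : Type*} [Group G]

theorem normalizer_le_char (K : Subgroup G) (C : Subgroup K) (hC : C.Characteristic) [Finite G] :
    𝐍(K) ≤ 𝐍(C.map K.subtype) := fun g hg => H24.mem_normalizer_of_conj_mem (by
  rintro _ ⟨x, hx, rfl⟩
  exact ⟨_, Subgroup.characteristic_iff_map_le.mp hC (K.normalizerMonoidHom ⟨g, hg⟩) ⟨x, hx, rfl⟩,
    rfl⟩)

theorem free_of_amb [Finite G] {L T : Subgroup G}
    (hf : ∀ N ≤ T, L ≤ 𝐍(N) → 𝐍(T) ≤ 𝐍(N) → N = ⊥) : Free L T := fun C hC h =>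
  map_subtype_eq_bot_iff.1 (hf _ (map_subtype_le C) h (normalizer_le_char T C hC))

variable [Finite G] {p q : ℕ} [hp : Fact p.Prime]

theorem exists_compl_rel {T V E : Subgroup G} (hVT : V ≤ T) (hET : E ≤ T) (hVE : E ⊓ V = ⊥)
    (hc : ⁅T, T⁆ ≤ V) (hpow : ∀ t ∈ T, t ^ p ∈ V) : ∃ W, E ⊓ W = ⊥ ∧ E ⊔ W = T := by
  obtain ⟨W, hVW, ⟨hWV, hUW⟩, hmax⟩ := Finite.exists_le_maximal
    (p := fun W : Subgroup G => W ≤ T ∧ E ⊓ W = ⊥) (a := V) ⟨hVT, hVE⟩
  refine ⟨W, hUW, le_antisymm (sup_le hET hWV) fun v hv => ?_⟩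
  by_contra hvn
  have hn : v ∈ 𝐍(W) := le_normalizer_of_commutator_le_right
    (((commutator_mono le_rfl hWV).trans hc).trans hVW) hv
  have h1 : E ⊓ (W ⊔ zpowers v) = ⊥ := by
    rw [eq_bot_iff]
    rintro u ⟨hu, hu'⟩
    obtain ⟨w, hw, i, rfl⟩ := (H5.mem_sup_zpowers_iff hn).1 hu'
    have h2 : v ^ i ∈ E ⊔ W := by
      have := mul_mem (inv_mem (mem_sup_right (S := E) hw)) (mem_sup_left (T := W) hu)
      simpa using this
    obtain ⟨j, rfl⟩ := H5.dvd_of_zpow_mem hp.out hvn (mem_sup_right (hVW (hpow v hv))) h2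
    refine hUW ▸ mem_inf.2 ⟨hu, mul_mem hw ?_⟩
    rw [_root_.zpow_mul, zpow_natCast]
    exact zpow_mem (hVW (hpow v hv)) j
  have := hmax ⟨sup_le hWV (zpowers_le.2 hv), h1⟩ le_sup_left
  exact hvn (mem_sup_right (this (mem_sup_right (mem_zpowers v))))

theorem GZ.charP {L T : Subgroup G} (h : GZ p q L T) (F : Type*) [Field F] [Finite F]
    (hF : Nat.card F = q) : CharP F p := by
  obtain ⟨M, hM⟩ := h.pu
  obtain ⟨n, -, rfl⟩ := hM.exists_pow
  have := Fintype.ofFinite F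
  exact charP_of_card_eq_prime_pow (by rw [← Nat.card_eq_fintype_card, hF])

theorem B1.qd {L T A D : Subgroup G} (h : B1 p q L T A D) (hp2 : p ≠ 2)
    (hQ : IsElementaryAbelian p (pCoreOf p L)) (hT : ∀ t ∈ T, t ^ p = 1) (F : Type) [Field F]
    [Finite F] (hF : Nat.card F = q) : ∃ G₀ E : Subgroup G, IsInternalDirectProduct G₀ E L ∧
      IsElementaryAbelian p E ∧ Nonempty (G₀ ≃* qdOver F) := by
  obtain ⟨M, hM⟩ := h.pu
  haveI := h.charP F hF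
  obtain ⟨ρ, ψ, hN⟩ := h.nat F hF
  have h2 : (2 : F) ≠ 0 := fun h1 => hp2 ((Nat.prime_dvd_prime_iff_eq hp.out Nat.prime_two).1
    ((CharP.cast_eq_zero_iff F p 2).1 (by exact_mod_cast h1)))
  obtain ⟨k, hk⟩ := hp.out.odd_of_ne_two hp2
  set Q := pCoreOf p L with hQdef
  set Z := zz p L with hZdef
  have hc : ∀ a ∈ Q, ∀ b ∈ Q, a * b = b * a := (EA.iff_mem.1 hQ).1
  have hsq : ∀ (N : Subgroup G), ∀ y ∈ Q, y * y ∈ N → y ∈ N := fun N y hy h1 => by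
    have := pow_mem h1 (k + 1)
    rwa [← sq, ← pow_mul, show 2 * (k + 1) = p + 1 by omega, pow_succ, EA.pow_eq_one hQ hy,
      one_mul] at this
  have hker : ∀ y ∈ L, ρ y = 1 ↔ y ∈ Q := fun y hy => by
    rw [hN.ρ_ker y hy, cm_bot, hQdef, ← h.cent, mem_inf, and_iff_right hy]
  obtain ⟨z, hz, hρz⟩ := hN.ρ_surj (-1)
  have hzg : ∀ g ∈ L, ⁅g, z⁆ ∈ Q := fun g hg => by
    refine (hker _ (H69.commutator_le_of_le le_rfl le_rfl (commutator_mem_commutator hg hz))).1 ?_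
    rw [commutatorElement_def, hN.ρ_mul _ (mul_mem (mul_mem hg hz) (inv_mem hg)) _ (inv_mem hz),
      hN.ρ_mul _ (mul_mem hg hz) _ (inv_mem hg), hN.ρ_mul _ hg _ hz, hN.ρ_inv hg, hN.ρ_inv hz, hρz]
    simp
  have hzz : z * z ∈ Q := (hker _ (mul_mem hz hz)).1 (by rw [hN.ρ_mul _ hz _ hz, hρz]; simp)
  have hnQ : ∀ g ∈ L, ∀ y ∈ Q, g * y * g⁻¹ ∈ Q := fun g hg y hy =>
    H69.conj_mem_of_mem_normalizer (h.normQ hg) hy
  have hcz : ∀ g ∈ L, ∀ y ∈ Q, z * (g * y * g⁻¹) * z⁻¹ = g * (z * y * z⁻¹) * g⁻¹ := by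
    intro g hg y hy
    have h1 := hc _ (hzg g hg) _ (hnQ z hz _ (hnQ g hg y hy))
    calc z * (g * y * g⁻¹) * z⁻¹ = ⁅g, z⁆ * (z * (g * y * g⁻¹) * z⁻¹) * ⁅g, z⁆⁻¹ := by
          rw [h1, mul_inv_cancel_right]
      _ = _ := by simp only [commutatorElement_def]; group
  let V : Subgroup G :=
    { carrier := {y | y ∈ Q ∧ z * y * z⁻¹ = y⁻¹}
      one_mem' := ⟨one_mem _, by simp⟩
      mul_mem' := fun {a b} ha hb => ⟨mul_mem ha.1 hb.1, by
        rw [hc a ha.1 b hb.1, _root_.mul_inv_rev, ← ha.2, ← hb.2, hc b hb.1 a ha.1]; group⟩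
      inv_mem' := fun {a} ha => ⟨inv_mem ha.1, by rw [inv_inv, ← conj_inv, ha.2, inv_inv]⟩ }
  let E : Subgroup G := Q ⊓ 𝐂(zpowers z)
  have hE : ∀ y, y ∈ E ↔ y ∈ Q ∧ z * y * z⁻¹ = y := fun y => by
    rw [mem_inf, H69.centralizer_zpowers, mem_centralizer_singleton_iff, mul_inv_eq_iff_eq_mul,
      eq_comm]
  have hLV : L ≤ 𝐍(V) := fun g hg => H24.mem_normalizer_of_conj_mem fun y hy =>
    ⟨hnQ g hg y hy.1, by rw [hcz g hg y hy.1, hy.2, conj_inv]⟩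
  have hLE : L ≤ 𝐍(E) := fun g hg => H24.mem_normalizer_of_conj_mem fun y hy =>
    (hE _).2 ⟨hnQ g hg y hy.1, by rw [hcz g hg y hy.1, ((hE y).1 hy).2]⟩
  have hVQ : V ≤ Q := fun y hy => hy.1
  have hEV : E ⊓ V = ⊥ := eq_bot_iff.2 fun y hy => hsq _ y hy.2.1 (by
    rw [mem_bot, mul_eq_one_iff_eq_inv, ← hy.2.2, ((hE y).1 hy.1).2])
  have hV1 : ∀ y ∈ Q, ⁅y, z⁆ ∈ V := fun y hy => ⟨hzg y (h.Q_leL hy), by
    have h1 := hc _ hzz _ hy
    simp only [commutatorElement_def]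
    calc z * (y * z * y⁻¹ * z⁻¹) * z⁻¹ = z * y * z⁻¹ * (z * z * y⁻¹ * (z * z)⁻¹) := by group
      _ = _ := by rw [hc _ hzz _ (inv_mem hy)]; group⟩
  have hQVE : ∀ y ∈ Q, ∀ N : Subgroup G, V ≤ N → (y * (z * y * z⁻¹) ∈ E → y * (z * y * z⁻¹) ∈ N) →
      y ∈ N := fun y hy N h1 h3 => by
    refine hsq N y hy ?_
    have h4 : y * (z * y * z⁻¹) ∈ E := (hE _).2 ⟨mul_mem hy (hnQ z hz y hy), by
      rw [hc y hy _ (hnQ z hz y hy)]
      calc z * (z * y * z⁻¹ * y) * z⁻¹ = z * z * y * (z * z)⁻¹ * (z * y * z⁻¹) := by group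
        _ = _ := by rw [hc _ hzz _ hy, mul_inv_cancel_right, hc y hy _ (hnQ z hz y hy)]⟩
    have h5 := mul_mem (h1 (hV1 y hy)) (h3 h4)
    rwa [hc y hy _ (hnQ z hz y hy), show ⁅y, z⁆ * (z * y * z⁻¹ * y) = y * y by
      simp only [commutatorElement_def]; group] at h5
  have hZE : ∀ y ∈ Z, y ∈ E → y ∈ 𝐂(L) := fun y hy hy' => by
    have h1 := hN.equiv z hz y hy
    rw [((hE y).1 hy').2, hρz] at h1
    refine cm_bot L ▸ (hN.ψ_ker y hy).1 ?_
    have h3 : (2 : F) • ψ y = 0 := by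
      rw [two_smul, ← eq_neg_iff_add_eq_zero]
      simpa [Matrix.neg_mulVec] using h1
    exact (smul_eq_zero.1 h3).resolve_left h2
  have hQA : ⁅Q, A⁆ ≤ V := by
    have hAV := (h.leA.trans h.le).trans hLV
    have h1 : Z ≤ cm V A := fun y hy => hQVE y (h.Z_le_Q hy) _
      (le_cm_iff'.2 ⟨Subgroup.le_normalizer, H69.commutator_le_left_of_le_normalizer hAV⟩)
      fun h3 => by
        have h4 := hZE _ (mul_mem hy (hN.conj_mem hz hy)) h3
        refine mem_cm.2 ⟨hLV (h.Q_leL h3.1), fun a ha => ?_⟩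
        rw [commutatorElement_eq_one_iff_mul_comm.2 (h4 a (h.le (h.leA ha)))]
        exact one_mem _
    refine le_trans (commutator_mono h.supD.le le_rfl) (commutator_sup_le_left
      ((h.Z_le_Q.trans h.Q_leL).trans hLV) ((h.leD.trans h.Q_leL).trans hLV) (le_cm_iff'.1 h1).2 ?_)
    rw [commutator_eq_bot_of_le_centralizer h.cD]; exact bot_le
  have hQQ : ⁅Q, Q⁆ ≤ V := (EA.commutator_self hQ).le.trans bot_le
  have hAV : A ≤ cm V Q := le_cm_iff.2 ⟨(h.leA.trans h.le).trans hLV, hQA⟩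
  have hQL : ⁅Q, L⁆ ≤ V := (le_cm_iff.1 (hM.le_of_res_le (h.supA.le.trans (sup_le hAV
    (le_cm_iff.2 ⟨h.Q_leL.trans hLV, hQQ⟩))) (h.res_le (le_normalizer_cm hLV h.normQ) h.leA hAV
      h.nle))).2
  have hEL : E ≤ 𝐂(L) := le_centralizer_of_commutator_eq_bot (eq_bot_iff.2 (hEV ▸ le_inf
    (H69.commutator_le_left_of_le_normalizer hLE)
    ((commutator_mono inf_le_left le_rfl).trans hQL)))
  have hVZ : V ≤ Z := fun y hy => hsq Z y hy.1 (by
    have h1 : ⁅Q, L⁆ ≤ Z := (le_cm_iff.1 (hM.le_of_res_le (h.supA.le.trans (sup_le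
      (le_cm_iff.2 ⟨(h.leA.trans h.le).trans h.normZ, h.comm_A⟩)
      (le_cm_iff.2 ⟨h.Q_leL.trans h.normZ, (EA.commutator_self hQ).le.trans bot_le⟩)))
      (le_cm_iff.2 ⟨(H69.res_le L).trans h.normZ, h.comm_res⟩))).2
    have := h1 (commutator_mem_commutator hy.1 hz)
    rwa [show ⁅y, z⁆ = y * (z * y * z⁻¹)⁻¹ by simp only [commutatorElement_def]; group, hy.2,
      inv_inv] at this)
  have hgz : ∀ g ∈ L, ⁅g, z⁆ ∈ V := fun g hg => ⟨hzg g hg, by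
    have h1 := hEL ((hE _).2 ⟨hzz, by group⟩) g hg
    simp only [commutatorElement_def]
    calc z * (g * z * g⁻¹ * z⁻¹) * z⁻¹ = z * g * z⁻¹ * (z * z * g⁻¹ * (z * z)⁻¹) := by group
      _ = _ := by rw [mul_assoc (z * z), ← _root_.mul_inv_rev, ← h1]; group⟩
  -- the homomorphism onto `Qd`
  let Φ : L →* qdOver F := MonoidHom.mk' (fun g => H59.QdF.aff (ρ g 0 0) (ρ g 0 1) (ρ g 1 0)
    (ρ g 1 1) (ψ ⁅(g : G), z⁆ 0) (ψ ⁅(g : G), z⁆ 1) (H64.SL2.det_eq _)) fun a b => by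
      have e : ⁅((a * b : L) : G), z⁆ = a * ⁅(b : G), z⁆ * (a : G)⁻¹ * ⁅(a : G), z⁆ := by
        simp only [coe_mul, commutatorElement_def]; group
      rw [H59.QdF.aff_mul, H59.QdF.aff_inj, e, hN.ψ_mul _ (hN.conj_mem a.2 (hVZ (hgz b b.2))) _
        (hVZ (hgz a a.2)), hN.equiv _ a.2 _ (hVZ (hgz b b.2)), coe_mul, hN.ρ_mul _ a.2 _ b.2]
      simp [H64.SL2.mul_apply']
  have hΦ : ∀ g : L, Φ g = H59.QdF.aff (ρ g 0 0) (ρ g 0 1) (ρ g 1 0)
    (ρ g 1 1) (ψ ⁅(g : G), z⁆ 0) (ψ ⁅(g : G), z⁆ 1) (H64.SL2.det_eq _) := fun _ => rfl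
  have hlin : ∀ g : L, H59.QdF.lin F (Φ g) = ρ g := fun g => H64.SL2.ext' rfl rfl rfl rfl
  have hΦker : Φ.ker = E.subgroupOf L := by
    ext g
    rw [mem_subgroupOf, MonoidHom.mem_ker]
    constructor
    · intro h1
      have h3 := (hker g g.2).1 (by rw [← hlin, h1, map_one])
      have h4 := h1
      rw [hΦ, H59.QdF.one_eq_aff, H59.QdF.aff_inj] at h4
      have h5 : ⁅(g : G), z⁆ ∈ 𝐂(L) := cm_bot L ▸ (hN.ψ_ker _ (hVZ (hgz g g.2))).1 (by
        ext i; fin_cases i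
        · exact h4.2.2.2.2.1
        · exact h4.2.2.2.2.2)
      have h6 : ⁅(g : G), z⁆ ∈ E ⊓ V := ⟨(hE _).2 ⟨hzg g g.2, by
        rw [h5 z hz, mul_inv_cancel_right]⟩, hgz g g.2⟩
      rw [hEV, mem_bot, commutatorElement_eq_one_iff_mul_comm] at h6
      exact (hE _).2 ⟨h3, by rw [← h6, mul_inv_cancel_right]⟩
    · intro h1
      have h3 : ⁅(g : G), z⁆ = 1 := commutatorElement_eq_one_iff_mul_comm.2 (hEL h1 z hz).symm
      rw [hΦ, H59.QdF.one_eq_aff, H59.QdF.aff_inj, (hker g g.2).2 h1.1, h3, hN.ψ_one]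
      simp
  have hΦsurj : Function.Surjective Φ := fun x => by
    obtain ⟨g, hg, e⟩ := hN.ρ_surj (H59.QdF.lin F x)
    obtain ⟨a, b, e'⟩ := H59.QdF.mem_ker_lin.1 (show x * (Φ ⟨g, hg⟩)⁻¹ ∈ (H59.QdF.lin F).ker by
      rw [MonoidHom.mem_ker, map_mul, map_inv, hlin, e, mul_inv_cancel])
    obtain ⟨w, hw, ew⟩ := hN.ψ_surj ![a / 2, b / 2]
    have hwL := h.Q_leL (h.Z_le_Q hw)
    refine ⟨⟨w, hwL⟩ * ⟨g, hg⟩, ?_⟩
    rw [map_mul, ← eq_mul_inv_iff_mul_eq, e']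
    rw [hΦ, H59.QdF.tr, H59.QdF.aff_inj]
    have h1 : ψ ⁅w, z⁆ = ![a, b] := by
      rw [← commutatorElement_inv, hN.ψ_inv (hN.comm_mem hz hw), hN.ψ_comm hz hw, hρz, ew]
      ext i; fin_cases i <;> simp [Matrix.neg_mulVec] <;> field_simp <;> ring
    rw [(hker w hwL).2 (h.Z_le_Q hw), h1]
    simp
  -- the complement
  have hET : E ≤ T := inf_le_left.trans h.Q_le
  obtain ⟨W, hW1, hW2⟩ := exists_compl_rel (p := p) (hVQ.trans h.Q_le) hET hEV (by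
    have hn := h.le.trans hLV
    refine le_trans (commutator_mono h.supA.le le_rfl) (commutator_sup_le_left (h.leA.trans hn)
      (h.Q_le.trans hn) ?_ ((commutator_mono le_rfl h.le).trans hQL))
    refine le_trans (commutator_mono le_rfl h.supA.le) (commutator_sup_le_right (h.leA.trans hn)
      (h.Q_le.trans hn) ((EA.commutator_self h.eaA).le.trans bot_le) ?_)
    rwa [Subgroup.commutator_comm]) fun t ht => by rw [hT t ht]; exact one_mem _
  have hEe : IsElementaryAbelian p E := EA.mono hQ inf_le_left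
  have hWT : W ≤ T := hW2 ▸ le_sup_right
  haveI : (E.subgroupOf L).Normal := hΦker ▸ MonoidHom.normal_ker Φ
  haveI := (EA.subgroupOf hEe L).1
  obtain ⟨H, hH⟩ := H3.gaschuetz_exists (E.subgroupOf L) (T.subgroupOf L) (comap_mono hET) (by
      obtain ⟨m, hm⟩ := EA.exists_card hEe
      rw [card_subgroupOf (hET.trans h.le), hm]
      exact Nat.Coprime.pow_left m ((Nat.Prime.coprime_iff_not_dvd hp.out).2 h.syl.not_dvd_relIndex))
    (W.subgroupOf L) (by rw [inf_comm, subgroupOf, subgroupOf, ← comap_inf, hW1]; exact bot_subgroupOf L)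
    (by rw [← subgroupOf_sup (hET.trans h.le) (hWT.trans h.le), hW2])
  refine ⟨H.map L.subtype, E, ⟨map_subtype_le H, hET.trans h.le,
    fun a ha b hb => hEL hb a (map_subtype_le H ha), ?_, ?_⟩, hEe, ?_⟩
  · rw [← map_subgroupOf_eq_of_le (hET.trans h.le), ← Subgroup.map_inf _ _ _ L.subtype_injective,
      inf_comm, hH.disjoint.eq_bot, Subgroup.map_bot]
  · rw [← map_subgroupOf_eq_of_le (hET.trans h.le), ← Subgroup.map_sup, sup_comm, hH.sup_eq_top,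
      H69.map_subtype_top]
  · refine ⟨(H.equivMapOfInjective _ L.subtype_injective).symm.trans
      (MulEquiv.ofBijective (Φ.comp H.subtype) ⟨?_, fun x => ?_⟩)⟩
    · rw [injective_iff_map_eq_one]
      intro a ha
      have : (a : L) ∈ E.subgroupOf L ⊓ H := ⟨hΦker ▸ ha, a.2⟩
      rw [hH.disjoint.eq_bot] at this
      exact Subtype.ext this
    · obtain ⟨g, rfl⟩ := hΦsurj x
      obtain ⟨⟨e, a⟩, rfl⟩ := hH.2 g
      refine ⟨a, ?_⟩
      have : Φ e = 1 := by rw [← MonoidHom.mem_ker, hΦker]; exact e.2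
      simp [this]

end H68.Push
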